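import Cfsg.Agent.H15.T.Sec5.D0

/-! Generated by tools/h0/tr.py. -/

set_option maxRecDepth 100000
set_option maxHeartbeats 0

namespace H15.XSec5
open H16 H0.TR
open scoped Pointwise

theorem o2s20 : H15.sumTo2 (fun j => H16.force (H15.X46.Z j) fun z => Bool.rec 0 1 (H15.lvT o2R20 z)) 46 100 = 1 := by decide +kernel
theorem o2e21 : 433 < 4600 ∧ o2R21 = o2F21.map (fun f => (H15.revc (H15.code f), H15.dk (H15.code (H15.X46.Z 433)) (H15.revc (H15.code f)))) := by decide +kernel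
theorem o2s21 : H15.sumTo2 (fun j => H16.force (H15.X46.Z j) fun z => Bool.rec 0 1 (H15.lvT o2R21 z)) 46 100 = 1 := by decide +kernel
theorem o2e22 : 763 < 4600 ∧ o2R22 = o2F22.map (fun f => (H15.revc (H15.code f), H15.dk (H15.code (H15.X46.Z 763)) (H15.revc (H15.code f)))) := by decide +kernel
theorem o2s22 : H15.sumTo2 (fun j => H16.force (H15.X46.Z j) fun z => Bool.rec 0 1 (H15.lvT o2R22 z)) 46 100 = 1 := by decide +kernel
theorem o2e23 : 851 < 4600 ∧ o2R23 = o2F23.map (fun f => (H15.revc (H15.code f), H15.dk (H15.code (H15.X46.Z 851)) (H15.revc (H15.code f)))) := by decide +kernel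
theorem o2s23 : H15.sumTo2 (fun j => H16.force (H15.X46.Z j) fun z => Bool.rec 0 1 (H15.lvT o2R23 z)) 46 100 = 1 := by decide +kernel
theorem o2e24 : 1508 < 4600 ∧ o2R24 = o2F24.map (fun f => (H15.revc (H15.code f), H15.dk (H15.code (H15.X46.Z 1508)) (H15.revc (H15.code f)))) := by decide +kernel
theorem o2s24 : H15.sumTo2 (fun j => H16.force (H15.X46.Z j) fun z => Bool.rec 0 1 (H15.lvT o2R24 z)) 46 100 = 1 := by decide +kernel
theorem o2f : ∀ β ∈ H15.Co2.B, H15.Co2.Z β ∈ o2F25 := by decide +kernel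
theorem o2c : H15.eqV C 11 ([10] ++ [9]) ([9] ++ [5]) = true ∧ H15.mapV C 11 [10] 33554436 110773314 = true ∧ H15.dk (H15.code 110773314) H15.rU = 6 := by decide +kernel
theorem s1 : ∀ k < 5, H15.eqV C (5 + 2) [k, 5] [5, k] = true := by decide +kernel
theorem s2 : ∀ i < H16.J2.Rl.length, ltAll 5 (nth [] H16.J2.Rl i) = 0 ∧ H15.eqV C (5 + 2) (nth [] H16.J2.Rl i) (nth [] E i) = true ∧
    ∀ k ∈ nth [] E i, k = 5 ∨ k = 5 + 1 := by decide +kernel
theorem s3 : H15.mapV C (5 + 2) [0, 2] 33554436 281475262784537 = true ∧ H15.mapV C (5 + 2) [2, 0] 33554436 17670034002469 = true ∧ 281475262784537 ≠ 17670034002469 ∧ 2 < 5 ∧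
    H15.okP 281475262784537 = true ∧ H15.okP 17670034002469 = true ∧ Nat.Coprime 2 5 ∧ H15.eqV C (5 + 2) (List.replicate 5 5) [] = true ∧
    H15.movL C (5 + 2) 33554436 [5] = true := by decide +kernel
theorem s4 : ltAll 11 [6] = 0 ∧ ∀ j < 24, H15.eqz (apM 25 33554431 31 C [6] (Nat.shiftLeft 8 (Nat.mul 25 j))) (Nat.shiftLeft 240 (Nat.mul 25 j)) = true := by decide +kernel
theorem s5 : H16.allL (fixL H16.J2.P 5 H16.J2.B) H16.J2.Rl = true := by decide +kernel

end H15.XSec5
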